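/-
Linear actions of matrix groups on vectors and on matrices, stable families up to scalars, descent to quotients.
-/
import Mathlib
import Cfsg.Prelude.Def_Classical
import Cfsg.Agent.Lib.ChevSmall.Kit

set_option autoImplicit false

namespace Cfsg.Agent.Lib.ChevSmall

open scoped Matrix MatrixGroups

section matAct

variable {n R H : Type*} [Fintype n] [DecidableEq n] [CommRing R] [Group H]

/-- The action on column vectors of a group of matrices. -/
def matAct (M : H →* Matrix n n R) : H →* Equiv.Perm (n → R) where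
  toFun g :=
    { toFun := fun v => M g *ᵥ v
      invFun := fun v => M g⁻¹ *ᵥ v
      left_inv := fun v => by
        simp only [Matrix.mulVec_mulVec]
        rw [← map_mul, inv_mul_cancel, map_one, Matrix.one_mulVec]
      right_inv := fun v => by
        simp only [Matrix.mulVec_mulVec]
        rw [← map_mul, mul_inv_cancel, map_one, Matrix.one_mulVec] }
  map_one' := by
    ext v i
    simp
  map_mul' g h := by
    ext v i
    simp [Matrix.mulVec_mulVec]

@[simp] lemma matAct_apply (M : H →* Matrix n n R) (g : H) (v : n → R) : matAct M g v = M g *ᵥ v := rfl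

lemma matAct_smul (M : H →* Matrix n n R) (g : H) (c : R) (v : n → R) :
    matAct M g (c • v) = c • matAct M g v := by
  simp [Matrix.mulVec_smul]

end matAct

section segre

variable {K : Type*} [Field K]

/-- The action `X ↦ g X gᵀ` of `SL₂` on `2 × 2` matrices. -/
def segreAct : SL(2, K) →* Equiv.Perm (Matrix (Fin 2) (Fin 2) K) where
  toFun g :=
    { toFun := fun X => (g : Matrix (Fin 2) (Fin 2) K) * X * (g : Matrix (Fin 2) (Fin 2) K)ᵀ
      invFun := fun X => ((g⁻¹ : SL(2, K)) : Matrix (Fin 2) (Fin 2) K) * X * ((g⁻¹ : SL(2, K)) : Matrix (Fin 2) (Fin 2) K)ᵀ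
      left_inv := fun X => by
        have h1 : ((g⁻¹ : SL(2, K)) : Matrix (Fin 2) (Fin 2) K) * (g : Matrix (Fin 2) (Fin 2) K) = 1 := by
          rw [← Matrix.SpecialLinearGroup.coe_mul, inv_mul_cancel, Matrix.SpecialLinearGroup.coe_one]
        have h2 : (g : Matrix (Fin 2) (Fin 2) K)ᵀ * ((g⁻¹ : SL(2, K)) : Matrix (Fin 2) (Fin 2) K)ᵀ = 1 := by
          rw [← Matrix.transpose_mul, h1, Matrix.transpose_one]
        calc _ = (((g⁻¹ : SL(2, K)) : Matrix (Fin 2) (Fin 2) K) * (g : Matrix (Fin 2) (Fin 2) K)) * X *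
              ((g : Matrix (Fin 2) (Fin 2) K)ᵀ * ((g⁻¹ : SL(2, K)) : Matrix (Fin 2) (Fin 2) K)ᵀ) := by
              simp only [Matrix.mul_assoc]
          _ = X := by rw [h1, h2, Matrix.one_mul, Matrix.mul_one]
      right_inv := fun X => by
        have h1 : (g : Matrix (Fin 2) (Fin 2) K) * ((g⁻¹ : SL(2, K)) : Matrix (Fin 2) (Fin 2) K) = 1 := by
          rw [← Matrix.SpecialLinearGroup.coe_mul, mul_inv_cancel, Matrix.SpecialLinearGroup.coe_one]
        have h2 : ((g⁻¹ : SL(2, K)) : Matrix (Fin 2) (Fin 2) K)ᵀ * (g : Matrix (Fin 2) (Fin 2) K)ᵀ = 1 := by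
          rw [← Matrix.transpose_mul, h1, Matrix.transpose_one]
        calc _ = ((g : Matrix (Fin 2) (Fin 2) K) * ((g⁻¹ : SL(2, K)) : Matrix (Fin 2) (Fin 2) K)) * X *
              (((g⁻¹ : SL(2, K)) : Matrix (Fin 2) (Fin 2) K)ᵀ * (g : Matrix (Fin 2) (Fin 2) K)ᵀ) := by
              simp only [Matrix.mul_assoc]
          _ = X := by rw [h1, h2, Matrix.one_mul, Matrix.mul_one] }
  map_one' := by
    ext X i j
    simp
  map_mul' g h := by
    ext X i j
    simp [Matrix.transpose_mul, Matrix.mul_assoc]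

@[simp] lemma segreAct_apply (g : SL(2, K)) (X : Matrix (Fin 2) (Fin 2) K) :
    segreAct g X = (g : Matrix (Fin 2) (Fin 2) K) * X * (g : Matrix (Fin 2) (Fin 2) K)ᵀ := rfl

lemma segreAct_smul (g : SL(2, K)) (c : K) (X : Matrix (Fin 2) (Fin 2) K) :
    segreAct g (c • X) = c • segreAct g X := by
  simp [Matrix.mul_smul, Matrix.smul_mul]

lemma det_segreAct (g : SL(2, K)) (X : Matrix (Fin 2) (Fin 2) K) : (segreAct g X).det = X.det := by
  simp [Matrix.det_mul, Matrix.det_transpose]

lemma transpose_segreAct (g : SL(2, K)) (X : Matrix (Fin 2) (Fin 2) K) :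
    (segreAct g X)ᵀ = segreAct g Xᵀ := by
  simp [Matrix.transpose_mul, Matrix.mul_assoc]

end segre

section rep

variable {G K V : Type*} [Group G] [Field K] [AddCommGroup V] [Module K V] {n : ℕ}

/-- A permutation representation on a family of vectors covering an invariant set up to scalars. -/
theorem exists_rep_of_cover (act : G →* Equiv.Perm V) (hlin : ∀ (g : G) (c : K) (v : V), act g (c • v) = c • act g v)
    (P : V → Prop) (hP : ∀ g v, P v → P (act g v)) (vec : Fin n → V) (hvec : ∀ j, P (vec j))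
    (cover : ∀ v, P v → ∃ (c : K) (j : Fin n), c ≠ 0 ∧ v = c • vec j)
    (inj : ∀ (i j : Fin n) (c : K), vec i = c • vec j → i = j) :
    ∃ ρ : G →* Equiv.Perm (Fin n), ∀ g i, ∃ c : K, c ≠ 0 ∧ act g (vec i) = c • vec (ρ g i) :=
  exists_proj_rep act hlin vec inj fun g i => cover _ (hP g _ (hvec i))

/-- A quotient of a group by a subgroup acting by scalars acts on the family. -/
theorem exists_lift {ρ : G →* Equiv.Perm (Fin n)} {act : G →* Equiv.Perm V} {vec : Fin n → V}
    (hρ : ∀ g i, ∃ c : K, c ≠ 0 ∧ act g (vec i) = c • vec (ρ g i))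
    (inj : ∀ (i j : Fin n) (c : K), vec i = c • vec j → i = j)
    (N : Subgroup G) [N.Normal]
    (hN : ∀ g ∈ N, ∀ i, ∃ c : K, act g (vec i) = c • vec i) :
    ∃ ρ' : (G ⧸ N) →* Equiv.Perm (Fin n), ∀ g, ρ' (QuotientGroup.mk g) = ρ g := by
  have hk : N ≤ ρ.ker := by
    intro g hg
    rw [MonoidHom.mem_ker]
    ext1 i
    obtain ⟨c, hc0, h1⟩ := hρ g i
    obtain ⟨d, h2⟩ := hN g hg i
    rw [h2] at h1
    have h3 : vec (ρ g i) = (c⁻¹ * d) • vec i := by
      rw [mul_smul, h1, inv_smul_smul₀ hc0]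
    exact inj _ _ _ h3
  exact ⟨QuotientGroup.lift N ρ hk, fun g => rfl⟩

/-- Identification of the image of an element in the representation. -/
theorem rep_eq_of {ρ : G →* Equiv.Perm (Fin n)} {act : G →* Equiv.Perm V} {vec : Fin n → V}
    (hρ : ∀ g i, ∃ c : K, c ≠ 0 ∧ act g (vec i) = c • vec (ρ g i))
    (inj : ∀ (i j : Fin n) (c : K), vec i = c • vec j → i = j)
    {g : G} {τ : Equiv.Perm (Fin n)} (hτ : ∀ i, ∃ c : K, c ≠ 0 ∧ act g (vec i) = c • vec (τ i)) :
    ρ g = τ := by
  ext1 i
  obtain ⟨c, hc0, h1⟩ := hρ g i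
  obtain ⟨d, _, h2⟩ := hτ i
  rw [h2] at h1
  have h3 : vec (ρ g i) = (c⁻¹ * d) • vec (τ i) := by
    rw [mul_smul, h1, inv_smul_smul₀ hc0]
  exact inj _ _ _ h3

end rep

section unitary

variable {K : Type*} [Field K]

/-- The hermitian form is preserved by a matrix with orthonormal columns. -/
theorem herm_of_isU {n q : ℕ} (hq : q ≠ 0) (hadd : ∀ a b : K, (a + b) ^ q = a ^ q + b ^ q)
    {A : Matrix (Fin n) (Fin n) K} (h : ∀ i j, ∑ k, A k i * (A k j) ^ q = (1 : Matrix (Fin n) (Fin n) K) i j)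
    (u v : Fin n → K) : Cfsg.hermForm n K q (A *ᵥ u) (A *ᵥ v) = Cfsg.hermForm n K q u v := by
  let φ : K →+ K := { toFun := fun x => x ^ q, map_zero' := zero_pow hq, map_add' := hadd }
  have hsum : ∀ k, (A *ᵥ v) k ^ q = ∑ j, (A k j) ^ q * (v j) ^ q := by
    intro k
    show φ ((A *ᵥ v) k) = _
    simp only [Matrix.mulVec, dotProduct, map_sum]
    exact Finset.sum_congr rfl fun j _ => mul_pow _ _ _
  simp only [Cfsg.hermForm]
  calc ∑ k, (A *ᵥ u) k * (A *ᵥ v) k ^ q
      = ∑ k, ∑ i, ∑ j, (A k i * u i) * ((A k j) ^ q * (v j) ^ q) := by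
        refine Finset.sum_congr rfl fun k _ => ?_
        rw [hsum k]
        simp only [Matrix.mulVec, dotProduct, Finset.sum_mul_sum]
    _ = ∑ i, ∑ j, (∑ k, A k i * (A k j) ^ q) * (u i * (v j) ^ q) := by
        rw [Finset.sum_comm]
        refine Finset.sum_congr rfl fun i _ => ?_
        rw [Finset.sum_comm]
        refine Finset.sum_congr rfl fun j _ => ?_
        rw [Finset.sum_mul]
        exact Finset.sum_congr rfl fun k _ => by ring
    _ = ∑ i, u i * v i ^ q := by
        refine Finset.sum_congr rfl fun i _ => ?_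
        rw [Finset.sum_eq_single i]
        · rw [h i i, Matrix.one_apply_eq, one_mul]
        · intro j _ hji
          rw [h i j, Matrix.one_apply_ne (Ne.symm hji), zero_mul]
        · intro hi
          exact absurd (Finset.mem_univ i) hi

end unitary

end Cfsg.Agent.Lib.ChevSmall
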