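/-
The fields with eight and nine elements as explicit computable fields.
-/
import Mathlib
import Cfsg.Agent.Lib.Classical.BinAlg

set_option autoImplicit false
set_option linter.unusedSectionVars false

namespace Cfsg.Agent.Lib.ChevSmall

open Cfsg.Agent.Lib.Classical.Bin

/-- The field with nine elements. -/
abbrev F9 := BinAlg (ZMod 3) (0 : ZMod 3) (1 : ZMod 3)

instance f9dec : DecidableEq F9 := fun u v =>
  decidable_of_iff (u.re = v.re ∧ u.im = v.im) (by
    constructor
    · rintro ⟨h1, h2⟩; exact BinAlg.ext h1 h2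
    · rintro rfl; exact ⟨rfl, rfl⟩)

/-- Coordinates. -/
def f9Equiv : F9 ≃ ZMod 3 × ZMod 3 where
  toFun z := (z.re, z.im)
  invFun z := ⟨z.1, z.2⟩
  left_inv _ := rfl
  right_inv _ := rfl

instance f9fin : Fintype F9 := Fintype.ofEquiv _ f9Equiv.symm

lemma card_F9 : Fintype.card F9 = 9 := by
  rw [Fintype.card_congr f9Equiv]
  simp [ZMod.card]

instance f9field : Field F9 :=
  { (inferInstance : CommRing F9) with
    inv := fun z => z * z * z * z * z * z * z
    exists_pair_ne := ⟨0, 1, by decide⟩
    mul_inv_cancel := by decide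
    inv_zero := by decide
    nnqsmul := _
    nnqsmul_def := fun _ _ => rfl
    qsmul := _
    qsmul_def := fun _ _ => rfl }

/-- Any field with nine elements is the explicit one. -/
theorem exists_equiv_F9 {F : Type*} [Field F] [Fintype F] (hF : Fintype.card F = 9) : Nonempty (F ≃+* F9) :=
  ⟨FiniteField.ringEquivOfCardEq (hF.trans card_F9.symm)⟩

/-- The field with eight elements: polynomials modulo `x³ + x + 1`. -/
@[ext] structure F8 where
  a : ZMod 2
  b : ZMod 2
  c : ZMod 2

instance f8dec : DecidableEq F8 := fun u v =>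
  decidable_of_iff (u.a = v.a ∧ u.b = v.b ∧ u.c = v.c) (by
    constructor
    · rintro ⟨h1, h2, h3⟩; exact F8.ext h1 h2 h3
    · rintro rfl; exact ⟨rfl, rfl, rfl⟩)

/-- Coordinates. -/
def f8Equiv : F8 ≃ ZMod 2 × ZMod 2 × ZMod 2 where
  toFun z := (z.a, z.b, z.c)
  invFun z := ⟨z.1, z.2.1, z.2.2⟩
  left_inv _ := rfl
  right_inv _ := rfl

instance f8fin : Fintype F8 := Fintype.ofEquiv _ f8Equiv.symm

lemma card_F8 : Fintype.card F8 = 8 := by
  rw [Fintype.card_congr f8Equiv]
  simp [ZMod.card]

instance : Zero F8 := ⟨⟨0, 0, 0⟩⟩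
instance : One F8 := ⟨⟨1, 0, 0⟩⟩
instance : Add F8 := ⟨fun u v => ⟨u.a + v.a, u.b + v.b, u.c + v.c⟩⟩
instance : Neg F8 := ⟨fun u => u⟩
instance : Mul F8 := ⟨fun u v =>
  ⟨u.a * v.a + u.b * v.c + u.c * v.b,
   u.a * v.b + u.b * v.a + u.b * v.c + u.c * v.b + u.c * v.c,
   u.a * v.c + u.b * v.b + u.c * v.a + u.c * v.c⟩⟩

instance f8comm : CommRing F8 where
  add_assoc := by decide +kernel
  zero_add := by decide +kernel
  add_zero := by decide +kernel
  neg_add_cancel := by decide +kernel
  add_comm := by decide +kernel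
  mul_assoc := by decide +kernel
  one_mul := by decide +kernel
  mul_one := by decide +kernel
  left_distrib := by decide +kernel
  right_distrib := by decide +kernel
  mul_comm := by decide +kernel
  zero_mul := by decide +kernel
  mul_zero := by decide +kernel
  nsmul := nsmulRec
  zsmul := zsmulRec

instance f8field : Field F8 :=
  { (inferInstance : CommRing F8) with
    inv := fun z => z * z * z * z * z * z
    exists_pair_ne := ⟨0, 1, by decide⟩
    mul_inv_cancel := by decide +kernel
    inv_zero := by decide +kernel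
    nnqsmul := _
    nnqsmul_def := fun _ _ => rfl
    qsmul := _
    qsmul_def := fun _ _ => rfl }

/-- Any field with eight elements is the explicit one. -/
theorem exists_equiv_F8 {F : Type*} [Field F] [Fintype F] (hF : Fintype.card F = 8) : Nonempty (F ≃+* F8) :=
  ⟨FiniteField.ringEquivOfCardEq (hF.trans card_F8.symm)⟩

end Cfsg.Agent.Lib.ChevSmall
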