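/-
`G₂(2)′ ≅ PSU₃(3)`: a common subgroup of `Sym(63)`.
-/
import Cfsg.Agent.Lib.ChevSmall.Transport
import Cfsg.Agent.Lib.ChevSmall.Act
import Cfsg.Agent.Lib.ChevSmall.Fields
import Cfsg.Agent.Lib.ChevSmall.G2U3Data
import Cfsg.Prelude.Def_ChevG2
import Cfsg.Agent.Lib.Classical.UnitaryCenter
import Cfsg.Agent.Lib.Classical.RingCongr3
import Cfsg.Agent.Lib.Chev.OrdG2
import Cfsg.Agent.S0280

set_option autoImplicit false
set_option maxRecDepth 100000
set_option maxHeartbeats 4000000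

namespace Cfsg.Agent.Lib.ChevSmall.G2U3

open Cfsg.Lie Cfsg.Agent.Lib.Compute Matrix
open scoped commutatorElement

/-! ### The side of `G₂(2)` -/

/-- A coordinate as a number. -/
def idxN : chevG2.Idx → ℕ := Sum.elim (fun i => i.val) (fun s => 2 + s.val)

/-- The 63 vectors. -/
def vG (i : Fin 63) : chevG2.Idx → ZMod 2 :=
  fun k => if Nat.testBit (pget 14 16383 vgT i) (idxN k) then 1 else 0

theorem vG_inj' : ∀ a b : Fin 63, vG a = vG b → a = b := by decide +kernel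

theorem vG_inj : Function.Injective vG := fun a b h => vG_inj' a b h

/-- A number as a point. -/
def fin63 (n : ℕ) : Fin 63 := Fin.ofNat 63 n

/-- The table of a root element. -/
def Tr (r x : ℕ) : ℕ := pget 6 63 trT (r * 63 + x)

theorem xr_one : ∀ (r : Fin chevG2.nroots) (i : Fin 63),
    chevG2.xMat (ZMod 2) r 1 *ᵥ vG i = vG (fin63 (Tr r i)) := by decide +kernel

theorem xr_zero : ∀ r : Fin chevG2.nroots, chevG2.xMat (ZMod 2) r 0 = 1 := by decide +kernel

theorem xr_sq : ∀ r : Fin chevG2.nroots, chevG2.xMat (ZMod 2) r 1 * chevG2.xMat (ZMod 2) r 1 = 1 := by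
  decide +kernel

/-- The coordinate representation. -/
noncomputable def matG : ↥(chevG2.group (ZMod 2)) →* Matrix chevG2.Idx chevG2.Idx (ZMod 2) :=
  (Units.coeHom _).comp (chevG2.group (ZMod 2)).subtype

theorem stableG (g : ↥(chevG2.group (ZMod 2))) (i : Fin 63) : ∃ j, matAct matG g (vG i) = vG j := by
  have key := stable_closure (matAct (Units.coeHom (Matrix chevG2.Idx chevG2.Idx (ZMod 2)))) vG vG_inj
    {g | ∃ (r : Fin chevG2.nroots) (t : ZMod 2), (g : Matrix chevG2.Idx chevG2.Idx (ZMod 2)) = chevG2.xMat (ZMod 2) r t}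
    (by
      rintro g ⟨r, t, hg⟩ i
      have ht : ∀ t : ZMod 2, t = 0 ∨ t = 1 := by decide
      rcases ht t with rfl | rfl
      · refine ⟨i, ?_⟩
        rw [matAct_apply]
        show (g : Matrix chevG2.Idx chevG2.Idx (ZMod 2)) *ᵥ _ = _
        rw [hg, xr_zero, Matrix.one_mulVec]
      · refine ⟨fin63 (Tr r i), ?_⟩
        rw [matAct_apply]
        show (g : Matrix chevG2.Idx chevG2.Idx (ZMod 2)) *ᵥ _ = _
        rw [hg, xr_one]) (g : GL chevG2.Idx (ZMod 2)) g.2 i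
  exact key

theorem exists_repG : ∃ ρ : ↥(chevG2.group (ZMod 2)) →* Equiv.Perm (Fin 63),
    ∀ g i, matAct matG g (vG i) = vG (ρ g i) :=
  exists_perm_rep' (matAct matG) vG vG_inj stableG

/-- The representation of `G₂(2)` on the 63 vectors. -/
noncomputable def ρG : ↥(chevG2.group (ZMod 2)) →* Equiv.Perm (Fin 63) := Classical.choose exists_repG

theorem ρG_spec (g : ↥(chevG2.group (ZMod 2))) (i : Fin 63) : matAct matG g (vG i) = vG (ρG g i) :=
  Classical.choose_spec exists_repG g i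

/-- A root element. -/
noncomputable def gx (r : Fin chevG2.nroots) : ↥(chevG2.group (ZMod 2)) :=
  ⟨⟨chevG2.xMat (ZMod 2) r 1, chevG2.xMat (ZMod 2) r 1, xr_sq r, xr_sq r⟩, Subgroup.subset_closure ⟨r, 1, rfl⟩⟩

theorem gx_inv (r : Fin chevG2.nroots) : (gx r)⁻¹ = gx r := by
  rw [inv_eq_iff_mul_eq_one]
  apply Subtype.ext
  apply Units.ext
  exact xr_sq r

theorem ρG_gx (r : Fin chevG2.nroots) (i : Fin 63) : ρG (gx r) i = fin63 (Tr r i) := by
  apply vG_inj
  rw [← ρG_spec, ← xr_one]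
  rfl

/-- The first commutator. -/
noncomputable def ga : ↥(chevG2.group (ZMod 2)) :=
  ⁅gx ⟨3, by decide⟩ * gx ⟨9, by decide⟩, gx ⟨1, by decide⟩ * gx ⟨2, by decide⟩⁆

/-- The second commutator. -/
noncomputable def gb : ↥(chevG2.group (ZMod 2)) := ⁅gx ⟨10, by decide⟩ * gx ⟨2, by decide⟩, gx ⟨7, by decide⟩⁆

theorem ga_mem : ga ∈ commutator ↥(chevG2.group (ZMod 2)) :=
  Subgroup.commutator_mem_commutator (Subgroup.mem_top _) (Subgroup.mem_top _)

theorem gb_mem : gb ∈ commutator ↥(chevG2.group (ZMod 2)) :=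
  Subgroup.commutator_mem_commutator (Subgroup.mem_top _) (Subgroup.mem_top _)

/-- The table of the first generator. -/
def Ta (x : ℕ) : ℕ := pget 6 63 taT x

/-- The table of the second generator. -/
def Tb (x : ℕ) : ℕ := pget 6 63 tbT x

theorem Ta_check : ∀ i : Fin 63, fin63 (Tr 3 (fin63 (Tr 9 (fin63 (Tr 1 (fin63 (Tr 2 (fin63 (Tr 9 (fin63 (Tr 3
    (fin63 (Tr 2 (fin63 (Tr 1 i))))))))))))))) = fin63 (Ta i) := by decide +kernel

theorem Tb_check : ∀ i : Fin 63, fin63 (Tr 10 (fin63 (Tr 2 (fin63 (Tr 7 (fin63 (Tr 2 (fin63 (Tr 10 (fin63 (Tr 7 i)))))))))))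
    = fin63 (Tb i) := by decide +kernel

theorem ρG_ga (i : Fin 63) : ρG ga i = fin63 (Ta i) := by
  rw [← Ta_check i]
  simp only [ga, commutatorElement_def, _root_.mul_inv_rev, gx_inv, map_mul, Equiv.Perm.mul_apply, ρG_gx]

theorem ρG_gb (i : Fin 63) : ρG gb i = fin63 (Tb i) := by
  rw [← Tb_check i]
  simp only [gb, commutatorElement_def, _root_.mul_inv_rev, gx_inv, map_mul, Equiv.Perm.mul_apply, ρG_gx]

/-! ### The side of `PSU₃(3)` -/

/-- An element of the field from a digit. -/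
def f9 (d : ℕ) : F9 := ⟨((d / 3 : ℕ) : ZMod 3), ((d % 3 : ℕ) : ZMod 3)⟩

/-- The digit of a field element. -/
def f9c (z : F9) : ℕ := 3 * z.re.val + z.im.val

/-- The 63 non-isotropic points. -/
def vU (i : Fin 63) : Fin 3 → F9 :=
  fun k => f9 (pget 10 1023 vuT i / 9 ^ (k : ℕ) % 9)

theorem vU_inj : ∀ (i j : Fin 63) (c : F9), vU i = c • vU j → i = j := by decide +kernel

theorem vU_herm : ∀ j : Fin 63, Cfsg.hermForm 3 F9 3 (vU j) (vU j) ≠ 0 := by decide +kernel

/-- The code of a vector. -/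
def vcode (a b c : F9) : ℕ := f9c a + 9 * f9c b + 81 * f9c c

theorem vU_cover' : ∀ a b c : F9, Cfsg.hermForm 3 F9 3 ![a, b, c] ![a, b, c] ≠ 0 →
    f9 (pget 10 1023 covT (vcode a b c) / 64) ≠ 0 ∧
    ![a, b, c] = f9 (pget 10 1023 covT (vcode a b c) / 64) • vU (fin63 (pget 10 1023 covT (vcode a b c) % 64)) := by
  decide +kernel

theorem vU_cover (v : Fin 3 → F9) (h : Cfsg.hermForm 3 F9 3 v v ≠ 0) :
    ∃ (c : F9) (j : Fin 63), c ≠ 0 ∧ v = c • vU j := by
  have hv : v = ![v 0, v 1, v 2] := by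
    funext i
    fin_cases i <;> rfl
  rw [hv] at h ⊢
  exact ⟨_, _, (vU_cover' _ _ _ h).1, (vU_cover' _ _ _ h).2⟩

theorem add_cube : ∀ a b : F9, (a + b) ^ 3 = a ^ 3 + b ^ 3 := by decide +kernel

/-- The matrices of elements of `SU₃(3)`. -/
noncomputable def matU : ↥(Cfsg.SU 3 F9 3) →* Matrix (Fin 3) (Fin 3) F9 :=
  (Cfsg.slToMat 3 F9).comp (Cfsg.SU 3 F9 3).subtype

theorem matU_herm (g : ↥(Cfsg.SU 3 F9 3)) (u v : Fin 3 → F9) :
    Cfsg.hermForm 3 F9 3 (matU g *ᵥ u) (matU g *ᵥ v) = Cfsg.hermForm 3 F9 3 u v := g.2 u v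

theorem exists_repU : ∃ ρ : ↥(Cfsg.SU 3 F9 3) →* Equiv.Perm (Fin 63),
    ∀ g i, ∃ c : F9, c ≠ 0 ∧ matAct matU g (vU i) = c • vU (ρ g i) :=
  exists_rep_of_cover (matAct matU) (matAct_smul matU) (fun v => Cfsg.hermForm 3 F9 3 v v ≠ 0)
    (fun g v hv => by
      rw [matAct_apply, matU_herm]
      exact hv) vU vU_herm vU_cover vU_inj

/-- The representation of `SU₃(3)` on the 63 points. -/
noncomputable def ρU : ↥(Cfsg.SU 3 F9 3) →* Equiv.Perm (Fin 63) := Classical.choose exists_repU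

theorem ρU_spec (g : ↥(Cfsg.SU 3 F9 3)) (i : Fin 63) :
    ∃ c : F9, c ≠ 0 ∧ matAct matU g (vU i) = c • vU (ρU g i) :=
  Classical.choose_spec exists_repU g i

/-- The matrix of the first generator. -/
def mA : Matrix (Fin 3) (Fin 3) F9 :=
  !![f9 2, f9 1, f9 4; f9 2, f9 4, f9 1; f9 8, f9 1, f9 1]

/-- The matrix of the second generator. -/
def mB : Matrix (Fin 3) (Fin 3) F9 :=
  !![f9 0, f9 4, f9 7; f9 5, f9 3, f9 2; f9 8, f9 1, f9 3]

theorem mA_det : mA.det = 1 := by decide +kernel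
theorem mB_det : mB.det = 1 := by decide +kernel
theorem mA_U' : ∀ i j : Fin 3, ∑ k, mA k i * (mA k j) ^ 3 = if i = j then (1 : F9) else 0 := by decide +kernel
theorem mB_U' : ∀ i j : Fin 3, ∑ k, mB k i * (mB k j) ^ 3 = if i = j then (1 : F9) else 0 := by decide +kernel
theorem mA_U (i j : Fin 3) : ∑ k, mA k i * (mA k j) ^ 3 = (1 : Matrix (Fin 3) (Fin 3) F9) i j := by
  rw [Matrix.one_apply]
  exact mA_U' i j
theorem mB_U (i j : Fin 3) : ∑ k, mB k i * (mB k j) ^ 3 = (1 : Matrix (Fin 3) (Fin 3) F9) i j := by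
  rw [Matrix.one_apply]
  exact mB_U' i j

/-- The first generator. -/
noncomputable def uA : ↥(Cfsg.SU 3 F9 3) := ⟨⟨mA, mA_det⟩, herm_of_isU (by norm_num) add_cube mA_U⟩
/-- The second generator. -/
noncomputable def uB : ↥(Cfsg.SU 3 F9 3) := ⟨⟨mB, mB_det⟩, herm_of_isU (by norm_num) add_cube mB_U⟩

theorem mA_act : ∀ i : Fin 63, ∃ c : F9, c ≠ 0 ∧ mA *ᵥ vU i = c • vU (fin63 (Ta i)) := by decide +kernel
theorem mB_act : ∀ i : Fin 63, ∃ c : F9, c ≠ 0 ∧ mB *ᵥ vU i = c • vU (fin63 (Tb i)) := by decide +kernel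

theorem ρU_uA : ρU uA = ρG ga :=
  rep_eq_of ρU_spec vU_inj fun i => by
    rw [ρG_ga]
    exact mA_act i

theorem ρU_uB : ρU uB = ρG gb :=
  rep_eq_of ρU_spec vU_inj fun i => by
    rw [ρG_gb]
    exact mB_act i

theorem exists_repP : ∃ ρ' : Cfsg.PSU 3 F9 3 →* Equiv.Perm (Fin 63), ∀ g, ρ' (QuotientGroup.mk g) = ρU g :=
  exists_lift ρU_spec vU_inj (Subgroup.center _) (by
    intro g hg i
    obtain ⟨c, hc⟩ := Cfsg.Agent.Lib.Classical.center_scalar (F := F9) (q := 3) (n := 3) (by rw [card_F9]; norm_num) g hg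
    rcases hc with hc | hc
    · refine ⟨c, ?_⟩
      rw [matAct_apply]
      show (((g : Matrix.SpecialLinearGroup (Fin 3) F9) : Matrix (Fin 3) (Fin 3) F9)) *ᵥ _ = _
      rw [hc, Matrix.smul_mulVec, Matrix.one_mulVec]
    · omega)

/-- The representation of `PSU₃(3)` on the 63 points. -/
noncomputable def ρP : Cfsg.PSU 3 F9 3 →* Equiv.Perm (Fin 63) := Classical.choose exists_repP

theorem ρP_mk (g : ↥(Cfsg.SU 3 F9 3)) : ρP (QuotientGroup.mk g) = ρU g := Classical.choose_spec exists_repP g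

/-! ### Counting -/

/-- The perm of a root element of odd parity. -/
def tau2 : Equiv.Perm (Fin 63) where
  toFun i := fin63 (Tr 2 i)
  invFun i := fin63 (Tr 2 i)
  left_inv := by decide +kernel
  right_inv := by decide +kernel

theorem tau2_sign : Equiv.Perm.sign tau2 = -1 := by decide +kernel

theorem card_comm_le : Nat.card ↥(commutator ↥(chevG2.group (ZMod 2))) ≤ 6048 := by
  have hG : Nat.card ↥(chevG2.group (ZMod 2)) = 12096 := by
    have h := Cfsg.Agent.Lib.Chev.orderG2 (F := ZMod 2) (q := 2) (ZMod.card 2)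
    rw [h]
    norm_num
  have hs : (Equiv.Perm.sign.comp ρG) (gx ⟨2, by decide⟩) = -1 := by
    rw [MonoidHom.comp_apply]
    have : ρG (gx ⟨2, by decide⟩) = tau2 := by
      ext1 i
      exact ρG_gx _ i
    rw [this, tau2_sign]
  have := card_commutator_le_of_sign _ hs
  omega

theorem card_PSU : Nat.card (Cfsg.PSU 3 F9 3) = 6048 := by
  have h := Cfsg.Agent.S0280.result (F := F9) (q := 3) (by rw [card_F9]; norm_num) 3 (by norm_num)
  simp only [Finset.prod_range_succ, Finset.prod_range_zero] at h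
  norm_num at h
  omega

/-- Letters as permutations. -/
noncomputable def gl (l : ℕ) : Equiv.Perm (Fin 63) := if l = 0 then ρG ga else ρG gb

/-- Letters as tables. -/
def Tl (l x : ℕ) : ℕ := pget 6 63 (bcond (Nat.beq l 0) taT tbT) x

/-- The words, listed with strictly increasing keys. -/
noncomputable def wordOf (i : ℕ) : List ℕ := decodeW 3 40 (pget 34 17179869183 wT i)

theorem Ta_lt : ∀ x : Fin 63, Ta x < 63 := by decide +kernel
theorem Tb_lt : ∀ x : Fin 63, Tb x < 63 := by decide +kernel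

theorem words_mono : allBelow (fun i => Nat.blt (numKey Tl 63 [0, 17, 1] (wordOf i))
    (numKey Tl 63 [0, 17, 1] (wordOf (i + 1)))) 6047 = true := by decide +kernel

theorem card_A : 6048 ≤ Nat.card ↥(Subgroup.closure ({ρG ga, ρG gb} : Set (Equiv.Perm (Fin 63)))) := by
  refine card_ge_of_words (k := 2) gl Tl ?_ _ ?_ wordOf (fun i _ a ha => decodeW_lt ha) [0, 17, 1] (by simp) ?_
  · intro a ha x
    have ha' : a = 0 ∨ a = 1 := by omega
    rcases ha' with rfl | rfl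
    · show ((ρG ga x : Fin 63) : ℕ) = Ta x
      rw [ρG_ga]
      exact Nat.mod_eq_of_lt (Ta_lt x)
    · show ((ρG gb x : Fin 63) : ℕ) = Tb x
      rw [ρG_gb]
      exact Nat.mod_eq_of_lt (Tb_lt x)
  · intro a ha
    have ha' : a = 0 ∨ a = 1 := by omega
    rcases ha' with rfl | rfl
    · exact Subgroup.subset_closure (Set.mem_insert _ _)
    · exact Subgroup.subset_closure (Set.mem_insert_of_mem _ rfl)
  · intro i hi
    have h := (allBelow_iff _ _).1 words_mono i (by omega)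
    exact Eq.mp Nat.blt_eq h

/-- `G₂(2)′ ≅ PSU₃(3)` over the explicit fields. -/
theorem main : Nonempty (↥(commutator ↥(chevG2.group (ZMod 2))) ≃* Cfsg.PSU 3 F9 3) := by
  refine iso_of_common (ρG.comp (commutator ↥(chevG2.group (ZMod 2))).subtype) ρP
    (Subgroup.closure ({ρG ga, ρG gb} : Set (Equiv.Perm (Fin 63)))) ?_ ?_ ?_ ?_
  · rw [Subgroup.closure_le]
    rintro x (rfl | rfl)
    · exact ⟨⟨ga, ga_mem⟩, rfl⟩
    · exact ⟨⟨gb, gb_mem⟩, rfl⟩
  · rw [Subgroup.closure_le]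
    rintro x (rfl | rfl)
    · exact ⟨QuotientGroup.mk uA, by rw [ρP_mk, ρU_uA]⟩
    · exact ⟨QuotientGroup.mk uB, by rw [ρP_mk, ρU_uB]⟩
  · exact card_comm_le.trans card_A
  · rw [card_PSU]
    exact card_A

end Cfsg.Agent.Lib.ChevSmall.G2U3
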