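/-
The derived group of `²G₂(3)` is `PSL₂(8)`: a common subgroup of `Sym(72)`.
-/
import Cfsg.Agent.Lib.ChevSmall.Transport
import Cfsg.Agent.Lib.ChevSmall.Act
import Cfsg.Agent.Lib.ChevSmall.Kit2
import Cfsg.Agent.Lib.ChevSmall.Fields
import Cfsg.Agent.Lib.ChevSmall.Ree3Data
import Cfsg.Agent.Lib.Classical.RingCongr
import Cfsg.Agent.Lib.Chev.T3G2
import Cfsg.Agent.Lib.Tw.Comm
import Cfsg.Agent.Lib.KS2.SL2Unip
import Cfsg.Agent.S1069

set_option autoImplicit false
set_option maxRecDepth 100000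
set_option maxHeartbeats 4000000

namespace Cfsg.Agent.Lib.ChevSmall.Ree3

open Cfsg.Lie Cfsg.Agent.Lib.Compute Matrix
open scoped MatrixGroups

/-! ### Fast evaluation of the matrices of root elements -/

/-- A coordinate as a number. -/
def idxN : chevG2.Idx → ℕ := Sum.elim (fun i => i.val) (fun s => 2 + s.val)

theorem idxN_lt (k : chevG2.Idx) : idxN k < 14 := by
  rcases k with i | s
  · have : i.val < 2 := i.2
    show i.val < 14
    omega
  · have : s.val < 12 := s.2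
    show 2 + s.val < 14
    omega

/-- A vector from a list of coordinates. -/
def vecL (v : List ℕ) : chevG2.Idx → ZMod 3 := fun k => ((v.getD (idxN k) 0 : ℕ) : ZMod 3)

/-- The entries of the root elements. -/
def Mt (r c i j : ℕ) : ℕ := pget 2 3 MT ((r * 3 + c) * 196 + i * 14 + j)

theorem Mt_spec0 : ∀ (r : Fin chevG2.nroots) (c : ZMod 3),
    chevG2.xMat (ZMod 3) r c = Matrix.of fun k l => ((Mt r c.val (idxN k) (idxN l) : ℕ) : ZMod 3) := by
  decide +kernel

theorem Mt_spec (r : Fin chevG2.nroots) (c : ZMod 3) (k l : chevG2.Idx) :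
    chevG2.xMat (ZMod 3) r c k l = ((Mt r c.val (idxN k) (idxN l) : ℕ) : ZMod 3) :=
  congrFun (congrFun (Mt_spec0 r c) k) l

/-- A finite sum. -/
noncomputable def sumTo (f : ℕ → ℕ) (n : ℕ) : ℕ := Nat.rec 0 (fun j ih => f j + ih) n

theorem sumTo_eq (f : ℕ → ℕ) (n : ℕ) : sumTo f n = ∑ j ∈ Finset.range n, f j := by
  induction n with
  | zero => rfl
  | succ n ih =>
    show f n + sumTo f n = _
    rw [Finset.sum_range_succ, ← ih, add_comm]

/-- The action of a root element on coded vectors. -/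
noncomputable def xn (r c : ℕ) (v : List ℕ) : List ℕ :=
  (List.range 14).map fun i => sumTo (fun j => Mt r c i j * v.getD j 0) 14 % 3

theorem sum_idx (g : ℕ → ZMod 3) : ∑ l : chevG2.Idx, g (idxN l) = ∑ j ∈ Finset.range 14, g j := by
  rw [Fintype.sum_sum_type]
  show (∑ i : Fin 2, g i) + ∑ j : Fin 12, g (2 + j) = _
  rw [Fin.sum_univ_eq_sum_range (fun i => g i) 2, Fin.sum_univ_eq_sum_range (fun j => g (2 + j)) 12,
    show (14 : ℕ) = 2 + 12 from rfl, Finset.sum_range_add]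

theorem xn_spec (r : Fin chevG2.nroots) (c : ZMod 3) (v : List ℕ) :
    chevG2.xMat (ZMod 3) r c *ᵥ vecL v = vecL (xn r c.val v) := by
  funext k
  have hk := idxN_lt k
  have h1 : (xn r c.val v).getD (idxN k) 0 = sumTo (fun j => Mt r c.val (idxN k) j * v.getD j 0) 14 % 3 := by
    simp [xn, hk]
  simp only [vecL, h1, ZMod.natCast_mod, sumTo_eq, Matrix.mulVec, dotProduct, Mt_spec]
  push_cast
  exact sum_idx (fun j => ((Mt r c.val (idxN k) j : ℕ) : ZMod 3) * ((v.getD j 0 : ℕ) : ZMod 3))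

/-- The action of a word on coded vectors. -/
noncomputable def wordFast (w : List (ℕ × ZMod 3)) (v : List ℕ) : List ℕ :=
  List.rec v (fun p _ ih => xn p.1 p.2.val ih) w

theorem word_spec (w : List (ℕ × ZMod 3)) (hw : ∀ p ∈ w, p.1 < 12) (v : List ℕ) :
    chevG2.wordMat (ZMod 3) w *ᵥ vecL v = vecL (wordFast w v) := by
  induction w with
  | nil =>
    show (chevG2.wordMat (ZMod 3) []) *ᵥ vecL v = vecL v
    simp [ChevalleyDatum.wordMat]
  | cons p w ih =>
    have h1 : chevG2.wordMat (ZMod 3) (p :: w) = chevG2.x (ZMod 3) p.1 p.2 * chevG2.wordMat (ZMod 3) w := by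
      simp [ChevalleyDatum.wordMat]
    have hp : p.1 < chevG2.nroots := hw p List.mem_cons_self
    have h2 : chevG2.x (ZMod 3) p.1 p.2 = chevG2.xMat (ZMod 3) ⟨p.1, hp⟩ p.2 := dif_pos hp
    rw [h1, h2, ← Matrix.mulVec_mulVec, ih (fun q hq => hw q (List.mem_cons_of_mem _ hq)), xn_spec]
    rfl

/-! ### The side of `²G₂(3)` -/

/-- A number as a point. -/
def fin72 (n : ℕ) : Fin 72 := Fin.ofNat 72 n

/-- The coded vectors. -/
noncomputable def VL (i : ℕ) : List ℕ := (List.range 14).map fun k => pget 23 8388607 vgT i / 3 ^ k % 3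

/-- The 72 vectors. -/
noncomputable def vG (i : Fin 72) : chevG2.Idx → ZMod 3 := vecL (VL i)

theorem vG_inj' : ∀ a b : Fin 72, vG a = vG b → a = b := by decide +kernel

theorem vG_inj : Function.Injective vG := fun a b h => vG_inj' a b h

/-- The tables of the generating words. -/
def Tg (k x : ℕ) : ℕ := pget 7 127 gT (k * 72 + x)

/-- The number of a generating word. -/
def wn (t u v : ZMod 3) : ℕ := t.val * 9 + u.val * 3 + v.val

theorem wordU_check : ∀ (t u v : ZMod 3) (i : Fin 72),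
    wordFast (reeWordU 1 t u v) (VL i) = VL (fin72 (Tg (wn t u v) i)) := by decide +kernel

theorem wordV_check : ∀ (t u v : ZMod 3) (i : Fin 72),
    wordFast (reeWordV 1 t u v) (VL i) = VL (fin72 (Tg (wn t u v + 27) i)) := by decide +kernel

theorem wordU_lt : ∀ (t u v : ZMod 3), ∀ p ∈ reeWordU 1 t u v, p.1 < 12 := by decide +kernel
theorem wordV_lt : ∀ (t u v : ZMod 3), ∀ p ∈ reeWordV 1 t u v, p.1 < 12 := by decide +kernel

/-- The group. -/
abbrev T : Subgroup (GL chevG2.Idx (ZMod 3)) := twistedG2 (ZMod 3) 1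

theorem actU (t u v : ZMod 3) (i : Fin 72) :
    chevG2.wordMat (ZMod 3) (reeWordU 1 t u v) *ᵥ vG i = vG (fin72 (Tg (wn t u v) i)) := by
  show _ *ᵥ vecL (VL i) = vecL _
  rw [word_spec _ (wordU_lt t u v), wordU_check]

theorem actV (t u v : ZMod 3) (i : Fin 72) :
    chevG2.wordMat (ZMod 3) (reeWordV 1 t u v) *ᵥ vG i = vG (fin72 (Tg (wn t u v + 27) i)) := by
  show _ *ᵥ vecL (VL i) = vecL _
  rw [word_spec _ (wordV_lt t u v), wordV_check]

/-- The coordinate representation. -/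
noncomputable def matG : ↥T →* Matrix chevG2.Idx chevG2.Idx (ZMod 3) := (Units.coeHom _).comp T.subtype

theorem stableG (g : ↥T) (i : Fin 72) : ∃ j, matAct matG g (vG i) = vG j := by
  have key := stable_closure (matAct (Units.coeHom (Matrix chevG2.Idx chevG2.Idx (ZMod 3)))) vG vG_inj
    {g | ∃ w ∈ g2Words (ZMod 3) 1, (g : Matrix chevG2.Idx chevG2.Idx (ZMod 3)) = chevG2.wordMat (ZMod 3) w}
    (by
      rintro g ⟨w, ⟨t, u, v, rfl | rfl⟩, hg⟩ i
      · refine ⟨fin72 (Tg (wn t u v) i), ?_⟩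
        rw [matAct_apply]
        show (g : Matrix chevG2.Idx chevG2.Idx (ZMod 3)) *ᵥ _ = _
        rw [hg, actU]
      · refine ⟨fin72 (Tg (wn t u v + 27) i), ?_⟩
        rw [matAct_apply]
        show (g : Matrix chevG2.Idx chevG2.Idx (ZMod 3)) *ᵥ _ = _
        rw [hg, actV]) (g : GL chevG2.Idx (ZMod 3)) g.2 i
  exact key

theorem exists_repG : ∃ ρ : ↥T →* Equiv.Perm (Fin 72), ∀ g i, matAct matG g (vG i) = vG (ρ g i) :=
  exists_perm_rep' (matAct matG) vG vG_inj stableG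

/-- The representation on the 72 vectors. -/
noncomputable def ρT : ↥T →* Equiv.Perm (Fin 72) := Classical.choose exists_repG

theorem ρT_spec (g : ↥T) (i : Fin 72) : matAct matG g (vG i) = vG (ρT g i) := Classical.choose_spec exists_repG g i

/-- A generating word of the first kind, as a group element. -/
noncomputable def gU (t u v : ZMod 3) : ↥T :=
  ⟨Cfsg.Agent.Lib.Chev.good3G2.toGood2.gW (reeWordU 1 t u v),
    Subgroup.subset_closure ⟨_, ⟨t, u, v, Or.inl rfl⟩, Cfsg.Agent.Lib.Chev.good3G2.toGood2.gW_coe _⟩⟩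

/-- A generating word of the second kind, as a group element. -/
noncomputable def gV (t u v : ZMod 3) : ↥T :=
  ⟨Cfsg.Agent.Lib.Chev.good3G2.toGood2.gW (reeWordV 1 t u v),
    Subgroup.subset_closure ⟨_, ⟨t, u, v, Or.inr rfl⟩, Cfsg.Agent.Lib.Chev.good3G2.toGood2.gW_coe _⟩⟩

theorem ρT_gU (t u v : ZMod 3) (i : Fin 72) : ρT (gU t u v) i = fin72 (Tg (wn t u v) i) := by
  apply vG_inj
  rw [← ρT_spec, ← actU]
  show ((Cfsg.Agent.Lib.Chev.good3G2.toGood2.gW (reeWordU 1 t u v) : GL chevG2.Idx (ZMod 3)) :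
    Matrix chevG2.Idx chevG2.Idx (ZMod 3)) *ᵥ _ = _
  rw [Cfsg.Agent.Lib.Chev.good3G2.toGood2.gW_coe]

theorem ρT_gV (t u v : ZMod 3) (i : Fin 72) : ρT (gV t u v) i = fin72 (Tg (wn t u v + 27) i) := by
  apply vG_inj
  rw [← ρT_spec, ← actV]
  show ((Cfsg.Agent.Lib.Chev.good3G2.toGood2.gW (reeWordV 1 t u v) : GL chevG2.Idx (ZMod 3)) :
    Matrix chevG2.Idx chevG2.Idx (ZMod 3)) *ᵥ _ = _
  rw [Cfsg.Agent.Lib.Chev.good3G2.toGood2.gW_coe]

/-- The table of the first generator. -/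
def Ta (x : ℕ) : ℕ := pget 7 127 taT x
/-- The table of the second generator. -/
def Tb (x : ℕ) : ℕ := pget 7 127 tbT x

/-- The first generator: word 15 (`U` with `(1,2,0)`), word 37 (`V` with `(1,0,1)`). -/
noncomputable def ga : ↥T := gU 1 2 0 * gV 1 0 1 * (gU 1 2 0)⁻¹ * (gV 1 0 1)⁻¹

/-- The second generator: word 34 (`V` with `(0,2,1)`), word 8 (`U` with `(0,2,2)`). -/
noncomputable def gb : ↥T := gV 0 2 1 * gU 0 2 2 * (gV 0 2 1)⁻¹ * (gU 0 2 2)⁻¹

/-- The third generator: word 3. -/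
noncomputable def gs : ↥T := gU 0 1 0

theorem ga_mem : ga ∈ commutator ↥T :=
  Subgroup.commutator_mem_commutator (Subgroup.mem_top _) (Subgroup.mem_top _)

theorem gb_mem : gb ∈ commutator ↥T :=
  Subgroup.commutator_mem_commutator (Subgroup.mem_top _) (Subgroup.mem_top _)

/-- A permutation from a table. -/
noncomputable def tabPerm (f : ℕ → ℕ) (h : ∀ i j : Fin 72, fin72 (f i) = fin72 (f j) → i = j) : Equiv.Perm (Fin 72) :=
  Equiv.ofBijective (fun i => fin72 (f i)) (Finite.injective_iff_bijective.1 fun i j hij => h i j hij)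

theorem Ta_inj : ∀ i j : Fin 72, fin72 (Ta i) = fin72 (Ta j) → i = j := by decide +kernel
theorem Tb_inj : ∀ i j : Fin 72, fin72 (Tb i) = fin72 (Tb j) → i = j := by decide +kernel

theorem Ta_check : ∀ i : Fin 72, fin72 (Ta (fin72 (Tg 37 (fin72 (Tg 15 i))))) = fin72 (Tg 15 (fin72 (Tg 37 i))) := by
  decide +kernel

theorem Tb_check : ∀ i : Fin 72, fin72 (Tb (fin72 (Tg 8 (fin72 (Tg 34 i))))) = fin72 (Tg 34 (fin72 (Tg 8 i))) := by
  decide +kernel

theorem ρT_ga (i : Fin 72) : ρT ga i = fin72 (Ta i) := by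
  have h := comm_table ρT (gU 1 2 0) (gV 1 0 1) (τ := tabPerm Ta Ta_inj) (fun i => by
    rw [ρT_gU, ρT_gV, ρT_gV]
    show fin72 (Ta _) = _
    rw [ρT_gU]
    exact Ta_check i)
  show ρT (gU 1 2 0 * gV 1 0 1 * (gU 1 2 0)⁻¹ * (gV 1 0 1)⁻¹) i = _
  rw [h]
  rfl

theorem ρT_gb (i : Fin 72) : ρT gb i = fin72 (Tb i) := by
  have h := comm_table ρT (gV 0 2 1) (gU 0 2 2) (τ := tabPerm Tb Tb_inj) (fun i => by
    rw [ρT_gU, ρT_gV, ρT_gU]
    show fin72 (Tb _) = _
    rw [ρT_gV]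
    exact Tb_check i)
  show ρT (gV 0 2 1 * gU 0 2 2 * (gV 0 2 1)⁻¹ * (gU 0 2 2)⁻¹) i = _
  rw [h]
  rfl

theorem ρT_gs (i : Fin 72) : ρT gs i = fin72 (Tg 3 i) := ρT_gU 0 1 0 i

theorem Ta_lt : ∀ x : Fin 72, Ta x < 72 := by decide +kernel
theorem Tb_lt : ∀ x : Fin 72, Tb x < 72 := by decide +kernel
theorem Ts_lt : ∀ x : Fin 72, Tg 3 x < 72 := by decide +kernel

/-- Letters as permutations. -/
noncomputable def gl (l : ℕ) : Equiv.Perm (Fin 72) :=
  if l = 0 then ρT ga else if l = 1 then ρT gb else ρT gs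

/-- Letters as tables. -/
def Tl (l x : ℕ) : ℕ := bcond (Nat.beq l 0) (Ta x) (bcond (Nat.beq l 1) (Tb x) (Tg 3 x))

theorem gl_spec (a : ℕ) (ha : a < 3) (x : Fin 72) : ((gl a x : Fin 72) : ℕ) = Tl a x := by
  have ha' : a = 0 ∨ a = 1 ∨ a = 2 := by omega
  rcases ha' with rfl | rfl | rfl
  · show ((ρT ga x : Fin 72) : ℕ) = Ta x
    rw [ρT_ga]
    exact Nat.mod_eq_of_lt (Ta_lt x)
  · show ((ρT gb x : Fin 72) : ℕ) = Tb x
    rw [ρT_gb]
    exact Nat.mod_eq_of_lt (Tb_lt x)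
  · show ((ρT gs x : Fin 72) : ℕ) = Tg 3 x
    rw [ρT_gs]
    exact Nat.mod_eq_of_lt (Ts_lt x)

/-- The words for the derived group. -/
noncomputable def word2 (i : ℕ) : List ℕ := decodeW 3 30 (pget 17 131071 w2T i)

/-- The words for the whole group. -/
noncomputable def word3 (i : ℕ) : List ℕ := decodeW 4 30 (pget 18 262143 w3T i)

theorem words2_mono : allBelow (fun i => Nat.blt (numKey Tl 72 [0, 6] (word2 i))
    (numKey Tl 72 [0, 6] (word2 (i + 1)))) 503 = true := by decide +kernel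

theorem words3_mono : allBelow (fun i => Nat.blt (numKey Tl 72 [0, 6] (word3 i))
    (numKey Tl 72 [0, 6] (word3 (i + 1)))) 1511 = true := by decide +kernel

/-- The subgroup generated by the first two. -/
noncomputable def A : Subgroup (Equiv.Perm (Fin 72)) := Subgroup.closure {ρT ga, ρT gb}

/-- The subgroup generated by the three. -/
noncomputable def C : Subgroup (Equiv.Perm (Fin 72)) := Subgroup.closure {ρT ga, ρT gb, ρT gs}

theorem card_A : 504 ≤ Nat.card ↥A := by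
  refine card_ge_of_words (k := 2) gl Tl (fun a ha x => gl_spec a (by omega) x) _ ?_ word2
    (fun i _ a ha => decodeW_lt' (B := 3) (by norm_num) ha) [0, 6] (by simp) ?_
  · intro a ha
    have ha' : a = 0 ∨ a = 1 := by omega
    rcases ha' with rfl | rfl
    · exact Subgroup.subset_closure (Set.mem_insert _ _)
    · exact Subgroup.subset_closure (Set.mem_insert_of_mem _ rfl)
  · intro i hi
    exact Eq.mp Nat.blt_eq ((allBelow_iff _ _).1 words2_mono i (by omega))

theorem card_C : 1512 ≤ Nat.card ↥C := by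
  refine card_ge_of_words (k := 3) gl Tl gl_spec _ ?_ word3
    (fun i _ a ha => decodeW_lt' (B := 4) (by norm_num) ha) [0, 6] (by simp) ?_
  · intro a ha
    have ha' : a = 0 ∨ a = 1 ∨ a = 2 := by omega
    rcases ha' with rfl | rfl | rfl
    · exact Subgroup.subset_closure (Set.mem_insert _ _)
    · exact Subgroup.subset_closure (Set.mem_insert_of_mem _ (Set.mem_insert _ _))
    · exact Subgroup.subset_closure (Set.mem_insert_of_mem _ (Set.mem_insert_of_mem _ rfl))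
  · intro i hi
    exact Eq.mp Nat.blt_eq ((allBelow_iff _ _).1 words3_mono i (by omega))

theorem card_T : Nat.card ↥T = 1512 := by
  have h : Nat.card ↥(twistedG2 (ZMod 3) 1) = (3 ^ (2 * 0 + 1)) ^ 3 * (3 ^ (2 * 0 + 1) - 1) * ((3 ^ (2 * 0 + 1)) ^ 3 + 1) :=
    Cfsg.Agent.S1069.result (K := ZMod 3) (m := 0) (by simp [ZMod.card])
  rw [h]
  norm_num

theorem C_le : C ≤ ρT.range := by
  rw [C, Subgroup.closure_le]
  rintro x (rfl | rfl | rfl)
  · exact ⟨ga, rfl⟩
  · exact ⟨gb, rfl⟩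
  · exact ⟨gs, rfl⟩

theorem ρT_inj_range : Function.Injective ρT ∧ ρT.range = C :=
  inj_of_range ρT C C_le (by rw [card_T]; exact card_C)

theorem Ts_conj_a : ∀ i : Fin 72, fin72 (Tg 3 (fin72 (Ta i))) =
    fin72 (wApply Tl [0, 0, 0, 0, 0, 1, 0, 0, 0] (fin72 (Tg 3 i))) := by decide +kernel

theorem Ts_conj_b : ∀ i : Fin 72, fin72 (Tg 3 (fin72 (Tb i))) =
    fin72 (wApply Tl [1, 1, 1, 0, 1, 1, 1, 0] (fin72 (Tg 3 i))) := by decide +kernel

/-! ### Normality of the derived group in the whole image -/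

theorem wApply_perm (w : List ℕ) (hw : ∀ a ∈ w, a < 2) (x : Fin 72) :
    ((((w.map gl).prod x : Fin 72)) : ℕ) = wApply Tl w x := by
  induction w with
  | nil => rfl
  | cons a w ih =>
    rw [List.map_cons, List.prod_cons, Equiv.Perm.mul_apply,
      gl_spec a (by have := hw a List.mem_cons_self; omega),
      ih (fun b hb => hw b (List.mem_cons_of_mem _ hb))]
    rfl

theorem word_mem_A (w : List ℕ) (hw : ∀ a ∈ w, a < 2) : (w.map gl).prod ∈ A := by
  induction w with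
  | nil => simp
  | cons a w ih =>
    rw [List.map_cons, List.prod_cons]
    refine A.mul_mem ?_ (ih (fun b hb => hw b (List.mem_cons_of_mem _ hb)))
    have ha : a = 0 ∨ a = 1 := by
      have := hw a List.mem_cons_self
      omega
    rcases ha with rfl | rfl
    · exact Subgroup.subset_closure (Set.mem_insert _ _)
    · exact Subgroup.subset_closure (Set.mem_insert_of_mem _ rfl)

theorem word_lt72 (w : List ℕ) (hw : ∀ a ∈ w, a < 2) (x : Fin 72) : wApply Tl w x < 72 := by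
  rw [← wApply_perm w hw x]
  exact Fin.isLt _

theorem conj_a : ρT gs * ρT ga * (ρT gs)⁻¹ ∈ A := by
  have hw : ∀ a ∈ ([0, 0, 0, 0, 0, 1, 0, 0, 0] : List ℕ), a < 2 := by decide
  have : ρT gs * ρT ga * (ρT gs)⁻¹ = (([0, 0, 0, 0, 0, 1, 0, 0, 0] : List ℕ).map gl).prod := by
    rw [mul_inv_eq_iff_eq_mul]
    ext1 i
    apply Fin.ext
    rw [Equiv.Perm.mul_apply, Equiv.Perm.mul_apply, wApply_perm _ hw, ρT_ga, ρT_gs]
    have h := congrArg Fin.val (Ts_conj_a i)
    rw [show ((fin72 (wApply Tl [0, 0, 0, 0, 0, 1, 0, 0, 0] (fin72 (Tg 3 i))) : Fin 72) : ℕ) = _ from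
      Nat.mod_eq_of_lt (word_lt72 _ hw _)] at h
    rw [ρT_gs]
    exact h
  rw [this]
  exact word_mem_A _ hw

theorem conj_b : ρT gs * ρT gb * (ρT gs)⁻¹ ∈ A := by
  have hw : ∀ a ∈ ([1, 1, 1, 0, 1, 1, 1, 0] : List ℕ), a < 2 := by decide
  have : ρT gs * ρT gb * (ρT gs)⁻¹ = (([1, 1, 1, 0, 1, 1, 1, 0] : List ℕ).map gl).prod := by
    rw [mul_inv_eq_iff_eq_mul]
    ext1 i
    apply Fin.ext
    rw [Equiv.Perm.mul_apply, Equiv.Perm.mul_apply, wApply_perm _ hw, ρT_gb, ρT_gs]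
    have h := congrArg Fin.val (Ts_conj_b i)
    rw [show ((fin72 (wApply Tl [1, 1, 1, 0, 1, 1, 1, 0] (fin72 (Tg 3 i))) : Fin 72) : ℕ) = _ from
      Nat.mod_eq_of_lt (word_lt72 _ hw _)] at h
    rw [ρT_gs]
    exact h
  rw [this]
  exact word_mem_A _ hw

/-! ### The side of `PSL₂(8)` -/

/-- An element of the field from a digit. -/
def f8 (d : ℕ) : F8 := ⟨((d / 4 % 2 : ℕ) : ZMod 2), ((d / 2 % 2 : ℕ) : ZMod 2), ((d % 2 : ℕ) : ZMod 2)⟩

/-- The digit of a field element. -/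
def f8c (z : F8) : ℕ := 4 * z.a.val + 2 * z.b.val + z.c.val

/-- The code of a matrix. -/
def mcode (a b c d : F8) : ℕ := 512 * f8c a + 64 * f8c b + 8 * f8c c + f8c d

/-- A matrix from a code. -/
def mOf (x : ℕ) : Matrix (Fin 2) (Fin 2) F8 := !![f8 (x / 512 % 8), f8 (x / 64 % 8); f8 (x / 8 % 8), f8 (x % 8)]

/-- The 72 points. -/
def vP (i : Fin 72) : Matrix (Fin 2) (Fin 2) F8 := mOf (pget 12 4095 vpT i)

theorem vP_inj : ∀ (i j : Fin 72) (c : F8), vP i = c • vP j → i = j := by decide +kernel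

/-- The invariant set of matrices. -/
def PM (X : Matrix (Fin 2) (Fin 2) F8) : Prop := X ≠ 0 ∧ X.det = 0 ∧ Xᵀ ≠ X

theorem vP_mem : ∀ j : Fin 72, vP j ≠ 0 ∧ (vP j).det = 0 ∧ (vP j)ᵀ ≠ vP j := by decide +kernel

theorem vP_cover' : ∀ a b c d : F8, (!![a, b; c, d] : Matrix (Fin 2) (Fin 2) F8) ≠ 0 →
    (!![a, b; c, d] : Matrix (Fin 2) (Fin 2) F8).det = 0 →
    (!![a, b; c, d] : Matrix (Fin 2) (Fin 2) F8)ᵀ ≠ !![a, b; c, d] →
    f8 (pget 10 1023 covT (mcode a b c d) / 128) ≠ 0 ∧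
    (!![a, b; c, d] : Matrix (Fin 2) (Fin 2) F8) =
      f8 (pget 10 1023 covT (mcode a b c d) / 128) • vP (fin72 (pget 10 1023 covT (mcode a b c d) % 128)) := by
  decide +kernel

theorem vP_cover (X : Matrix (Fin 2) (Fin 2) F8) (h : PM X) : ∃ (c : F8) (j : Fin 72), c ≠ 0 ∧ X = c • vP j := by
  have hv : X = !![X 0 0, X 0 1; X 1 0, X 1 1] := (Matrix.eta_fin_two X)
  obtain ⟨h1, h2, h3⟩ := h
  rw [hv] at h1 h2 h3 ⊢
  exact ⟨_, _, (vP_cover' _ _ _ _ h1 h2 h3).1, (vP_cover' _ _ _ _ h1 h2 h3).2⟩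

theorem PM_act (g : SL(2, F8)) (X : Matrix (Fin 2) (Fin 2) F8) (h : PM X) : PM (segreAct g X) := by
  obtain ⟨h1, h2, h3⟩ := h
  refine ⟨fun h0 => h1 ?_, by rw [det_segreAct, h2], fun h0 => h3 ?_⟩
  · have h4 : segreAct g⁻¹ (segreAct g X) = X := by
      rw [← Equiv.Perm.mul_apply, ← map_mul, inv_mul_cancel, map_one, Equiv.Perm.one_apply]
    rw [← h4, h0, segreAct_apply, Matrix.mul_zero, Matrix.zero_mul]
  · rw [transpose_segreAct] at h0
    exact (segreAct g).injective h0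

theorem exists_repS_abs (vP : Fin 72 → Matrix (Fin 2) (Fin 2) F8)
    (vP_inj : ∀ (i j : Fin 72) (c : F8), vP i = c • vP j → i = j)
    (vP_mem : ∀ j : Fin 72, vP j ≠ 0 ∧ (vP j).det = 0 ∧ (vP j)ᵀ ≠ vP j)
    (vP_cover : ∀ (X : Matrix (Fin 2) (Fin 2) F8), PM X → ∃ (c : F8) (j : Fin 72), c ≠ 0 ∧ X = c • vP j) :
    ∃ ρ : SL(2, F8) →* Equiv.Perm (Fin 72),
      ∀ g i, ∃ c : F8, c ≠ 0 ∧ segreAct g (vP i) = c • vP (ρ g i) := by
  have h1 : ∀ (g : SL(2, F8)) (c : F8) (v : Matrix (Fin 2) (Fin 2) F8),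
      segreAct g (c • v) = c • segreAct g v := segreAct_smul
  exact exists_rep_of_cover (K := F8) (V := Matrix (Fin 2) (Fin 2) F8) segreAct h1 PM PM_act vP vP_mem vP_cover vP_inj

theorem exists_repS : ∃ ρ : SL(2, F8) →* Equiv.Perm (Fin 72),
    ∀ g i, ∃ c : F8, c ≠ 0 ∧ segreAct g (vP i) = c • vP (ρ g i) :=
  exists_repS_abs vP vP_inj vP_mem vP_cover

/-- The representation of `SL₂(8)`. -/
noncomputable def ρS : SL(2, F8) →* Equiv.Perm (Fin 72) := Classical.choose exists_repS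

theorem ρS_spec (g : SL(2, F8)) (i : Fin 72) : ∃ c : F8, c ≠ 0 ∧ segreAct g (vP i) = c • vP (ρS g i) :=
  Classical.choose_spec exists_repS g i

theorem exists_repQ : ∃ ρ' : Matrix.ProjectiveSpecialLinearGroup (Fin 2) F8 →* Equiv.Perm (Fin 72),
    ∀ g, ρ' (QuotientGroup.mk g) = ρS g :=
  exists_lift ρS_spec vP_inj (Subgroup.center _) (by
    intro g hg i
    obtain ⟨r, _, hr⟩ := Matrix.SpecialLinearGroup.mem_center_iff.1 hg
    refine ⟨r * r, ?_⟩
    rw [segreAct_apply, ← hr]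
    refine Matrix.ext fun a b => ?_
    simp [Matrix.mul_apply, Matrix.smul_apply, Matrix.scalar_apply, Matrix.diagonal_apply, mul_assoc]
    exact Or.inl (mul_comm _ _))

/-- The representation of `PSL₂(8)`. -/
noncomputable def ρQ : Matrix.ProjectiveSpecialLinearGroup (Fin 2) F8 →* Equiv.Perm (Fin 72) := Classical.choose exists_repQ

theorem ρQ_mk (g : SL(2, F8)) : ρQ (QuotientGroup.mk g) = ρS g := Classical.choose_spec exists_repQ g

/-- The matrix of the first generator. -/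
def sA : SL(2, F8) := ⟨!![f8 0, f8 1; f8 7, f8 1], by decide +kernel⟩

/-- The matrix of the second generator. -/
def sB : SL(2, F8) := ⟨!![f8 1, f8 0; f8 4, f8 7], by decide +kernel⟩

theorem sA_act : ∀ i : Fin 72, ∃ c : F8, c ≠ 0 ∧
    (!![f8 0, f8 1; f8 7, f8 1] : Matrix (Fin 2) (Fin 2) F8) * vP i * (!![f8 0, f8 1; f8 7, f8 1] : Matrix (Fin 2) (Fin 2) F8)ᵀ =
      c • vP (fin72 (Ta i)) := by decide +kernel

theorem sB_act : ∀ i : Fin 72, ∃ c : F8, c ≠ 0 ∧
    (!![f8 1, f8 0; f8 4, f8 7] : Matrix (Fin 2) (Fin 2) F8) * vP i * (!![f8 1, f8 0; f8 4, f8 7] : Matrix (Fin 2) (Fin 2) F8)ᵀ =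
      c • vP (fin72 (Tb i)) := by decide +kernel

theorem ρS_sA (i : Fin 72) : ρS sA i = fin72 (Ta i) := by
  obtain ⟨c, hc, h⟩ := ρS_spec sA i
  obtain ⟨d, _, h2⟩ := sA_act i
  have h3 : c • vP (ρS sA i) = d • vP (fin72 (Ta i)) := h.symm.trans h2
  apply vP_inj _ _ (c⁻¹ * d)
  rw [mul_smul, ← h3, inv_smul_smul₀ hc]

theorem ρS_sB (i : Fin 72) : ρS sB i = fin72 (Tb i) := by
  obtain ⟨c, hc, h⟩ := ρS_spec sB i
  obtain ⟨d, _, h2⟩ := sB_act i
  have h3 : c • vP (ρS sB i) = d • vP (fin72 (Tb i)) := h.symm.trans h2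
  apply vP_inj _ _ (c⁻¹ * d)
  rw [mul_smul, ← h3, inv_smul_smul₀ hc]

theorem card_PSL_le : Nat.card (Matrix.ProjectiveSpecialLinearGroup (Fin 2) F8) ≤ 504 := by
  have h1 : Nat.card SL(2, F8) = 504 := by
    rw [Cfsg.Agent.Lib.KS2.SL2.card_SL2, card_F8]
    norm_num
  rw [← h1]
  exact Nat.card_le_card_of_surjective _ (QuotientGroup.mk'_surjective _)

theorem A_le_Q : A ≤ ρQ.range := by
  rw [A, Subgroup.closure_le]
  rintro x (rfl | rfl)
  · refine ⟨QuotientGroup.mk sA, ?_⟩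
    rw [ρQ_mk]
    ext1 i
    rw [ρS_sA, ρT_ga]
  · refine ⟨QuotientGroup.mk sB, ?_⟩
    rw [ρQ_mk]
    ext1 i
    rw [ρS_sB, ρT_gb]

theorem card_A_eq : Nat.card ↥A = 504 := by
  obtain ⟨_, h2⟩ := inj_of_range ρQ A A_le_Q (card_PSL_le.trans card_A)
  haveI : Finite ρQ.range := Finite.of_surjective ρQ.rangeRestrict ρQ.rangeRestrict_surjective
  have h3 : Nat.card ↥A ≤ Nat.card (Matrix.ProjectiveSpecialLinearGroup (Fin 2) F8) := by
    rw [← h2]
    exact Nat.card_le_card_of_surjective ρQ.rangeRestrict ρQ.rangeRestrict_surjective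
  have := card_PSL_le
  have := card_A
  omega

/-! ### The derived group -/

theorem comm_image_le : (commutator ↥T).map ρT ≤ A := by
  -- the preimage of `A` in `T`
  let H : Subgroup ↥T := A.comap ρT
  have hinj := ρT_inj_range.1
  have hrange := ρT_inj_range.2
  have hAC : A ≤ ρT.range := by
    rw [hrange, A, C, Subgroup.closure_le]
    rintro x (rfl | rfl)
    · exact Subgroup.subset_closure (Set.mem_insert _ _)
    · exact Subgroup.subset_closure (Set.mem_insert_of_mem _ (Set.mem_insert _ _))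
  have hcard : Nat.card ↥H = 504 := by
    rw [← card_A_eq]
    have hm : H.map ρT = A := Subgroup.map_comap_eq_self hAC
    rw [← hm, Subgroup.card_map_of_injective hinj]
  have hidx : H.index = 3 := by
    have h1 := Subgroup.card_mul_index H
    rw [hcard, card_T] at h1
    omega
  -- generators of `T`
  have hgen : Subgroup.closure ({ga, gb, gs} : Set ↥T) = ⊤ := by
    have hm : (Subgroup.closure ({ga, gb, gs} : Set ↥T)).map ρT = (⊤ : Subgroup ↥T).map ρT := by
      rw [MonoidHom.map_closure, ← MonoidHom.range_eq_map, hrange, C]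
      congr 1
      simp [Set.image_insert_eq]
    exact Subgroup.map_injective hinj hm
  have hn : ∀ s ∈ ({ga, gb, gs} : Set ↥T), H.map (MulAut.conj s).toMonoidHom ≤ H := by
    have hA : ∀ x ∈ A, ∀ s : ↥T, ρT s ∈ A → ρT s * x * (ρT s)⁻¹ ∈ A := fun x hx s hs =>
      A.mul_mem (A.mul_mem hs hx) (A.inv_mem hs)
    have hsc : ∀ x ∈ A, ρT gs * x * (ρT gs)⁻¹ ∈ A := by
      intro x hx
      induction hx using Subgroup.closure_induction with
      | mem y hy =>
        rcases hy with rfl | rfl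
        · exact conj_a
        · exact conj_b
      | one => simp
      | mul a b _ _ ha hb =>
        have : ρT gs * (a * b) * (ρT gs)⁻¹ = (ρT gs * a * (ρT gs)⁻¹) * (ρT gs * b * (ρT gs)⁻¹) := by group
        rw [this]
        exact A.mul_mem ha hb
      | inv a _ ha =>
        have : ρT gs * a⁻¹ * (ρT gs)⁻¹ = (ρT gs * a * (ρT gs)⁻¹)⁻¹ := by group
        rw [this]
        exact A.inv_mem ha
    rintro s hs x ⟨y, hy, rfl⟩
    have hy' : ρT y ∈ A := hy
    show ρT (s * y * s⁻¹) ∈ A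
    rw [map_mul, map_mul, map_inv]
    rcases hs with rfl | rfl | rfl
    · exact hA _ hy' _ (Subgroup.subset_closure (Set.mem_insert _ _))
    · exact hA _ hy' _ (Subgroup.subset_closure (Set.mem_insert_of_mem _ rfl))
    · exact hsc _ hy'
  have hle := comm_le_of_index_three H _ hgen hn hidx
  rintro x ⟨y, hy, rfl⟩
  exact hle hy

/-- The derived group of `²G₂(3)` is `PSL₂(8)`, over the explicit field. -/
theorem main : Nat.card ↥(commutator ↥T) = 504 ∧
    Nonempty (↥(commutator ↥T) ≃* Matrix.ProjectiveSpecialLinearGroup (Fin 2) F8) := by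
  let φ : ↥(commutator ↥T) →* Equiv.Perm (Fin 72) := ρT.comp (commutator ↥T).subtype
  have hφ : Function.Injective φ := ρT_inj_range.1.comp Subtype.val_injective
  have hr : φ.range = A := by
    apply le_antisymm
    · rw [MonoidHom.range_eq_map]
      rintro x ⟨y, _, rfl⟩
      exact comm_image_le ⟨y.1, y.2, rfl⟩
    · rw [A, Subgroup.closure_le]
      rintro x (rfl | rfl)
      · exact ⟨⟨ga, ga_mem⟩, rfl⟩
      · exact ⟨⟨gb, gb_mem⟩, rfl⟩
  have hc : Nat.card ↥(commutator ↥T) = 504 := by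
    rw [← card_A_eq, ← hr]
    exact Nat.card_congr (MonoidHom.ofInjective hφ).toEquiv
  refine ⟨hc, iso_of_common φ ρQ A hr.ge A_le_Q ?_ (card_PSL_le.trans card_A)⟩
  rw [hc]
  exact card_A

end Cfsg.Agent.Lib.ChevSmall.Ree3
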