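/-
`PSU₄(2) ≅ PSp₄(3)`: a common subgroup of `Sym(40)`.
-/
import Cfsg.Agent.Lib.ChevSmall.Transport
import Cfsg.Agent.Lib.ChevSmall.Act
import Cfsg.Agent.Lib.ChevSmall.U42Data
import Cfsg.Agent.Lib.Classical.F4
import Cfsg.Agent.Lib.Classical.UnitaryCenter
import Cfsg.Agent.Lib.Classical.RingCongr3
import Cfsg.Agent.Lib.Classical.SpCenter
import Cfsg.Agent.S0280
import Cfsg.Agent.S0245
import Cfsg.Agent.S0246

set_option autoImplicit false
set_option maxRecDepth 100000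
set_option maxHeartbeats 4000000

namespace Cfsg.Agent.Lib.ChevSmall.U42

open Cfsg.Agent.Lib.Compute Matrix Cfsg.Agent.Lib.Classical.FF4

/-- A number as a point. -/
def fin40 (n : ℕ) : Fin 40 := Fin.ofNat 40 n

/-- The table of the first generator. -/
def Ta (x : ℕ) : ℕ := pget 6 63 taT x

/-- The table of the second generator. -/
def Tb (x : ℕ) : ℕ := pget 6 63 tbT x

/-! ### The side of `PSU₄(2)` -/

/-- An element of the field from a digit. -/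
def f4 (d : ℕ) : F4 := ⟨((d / 2 : ℕ) : ZMod 2), ((d % 2 : ℕ) : ZMod 2)⟩

/-- The digit of a field element. -/
def f4c (z : F4) : ℕ := 2 * z.re.val + z.im.val

/-- The 40 non-isotropic points. -/
def vU (i : Fin 40) : Fin 4 → F4 :=
  fun k => f4 (pget 8 255 vuT i / 4 ^ (k : ℕ) % 4)

theorem vU_inj : ∀ (i j : Fin 40) (c : F4), vU i = c • vU j → i = j := by decide +kernel

theorem vU_herm : ∀ j : Fin 40, Cfsg.hermForm 4 F4 2 (vU j) (vU j) ≠ 0 := by decide +kernel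

/-- The code of a vector. -/
def vcode (a b c d : F4) : ℕ := f4c a + 4 * f4c b + 16 * f4c c + 64 * f4c d

theorem vU_cover' : ∀ a b c d : F4, Cfsg.hermForm 4 F4 2 ![a, b, c, d] ![a, b, c, d] ≠ 0 →
    f4 (pget 8 255 covU (vcode a b c d) / 64) ≠ 0 ∧
    ![a, b, c, d] = f4 (pget 8 255 covU (vcode a b c d) / 64) • vU (fin40 (pget 8 255 covU (vcode a b c d) % 64)) := by
  decide +kernel

theorem vU_cover (v : Fin 4 → F4) (h : Cfsg.hermForm 4 F4 2 v v ≠ 0) :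
    ∃ (c : F4) (j : Fin 40), c ≠ 0 ∧ v = c • vU j := by
  have hv : v = ![v 0, v 1, v 2, v 3] := by
    funext i
    fin_cases i <;> rfl
  rw [hv] at h ⊢
  exact ⟨_, _, (vU_cover' _ _ _ _ h).1, (vU_cover' _ _ _ _ h).2⟩

theorem add_sq : ∀ a b : F4, (a + b) ^ 2 = a ^ 2 + b ^ 2 := by decide +kernel

/-- The matrices of elements of `SU₄(2)`. -/
noncomputable def matU : ↥(Cfsg.SU 4 F4 2) →* Matrix (Fin 4) (Fin 4) F4 :=
  (Cfsg.slToMat 4 F4).comp (Cfsg.SU 4 F4 2).subtype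

theorem matU_herm (g : ↥(Cfsg.SU 4 F4 2)) (u v : Fin 4 → F4) :
    Cfsg.hermForm 4 F4 2 (matU g *ᵥ u) (matU g *ᵥ v) = Cfsg.hermForm 4 F4 2 u v := g.2 u v

theorem exists_repU : ∃ ρ : ↥(Cfsg.SU 4 F4 2) →* Equiv.Perm (Fin 40),
    ∀ g i, ∃ c : F4, c ≠ 0 ∧ matAct matU g (vU i) = c • vU (ρ g i) :=
  exists_rep_of_cover (matAct matU) (matAct_smul matU) (fun v => Cfsg.hermForm 4 F4 2 v v ≠ 0)
    (fun g v hv => by
      rw [matAct_apply, matU_herm]
      exact hv) vU vU_herm vU_cover vU_inj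

/-- The representation of `SU₄(2)` on the 40 points. -/
noncomputable def ρU : ↥(Cfsg.SU 4 F4 2) →* Equiv.Perm (Fin 40) := Classical.choose exists_repU

theorem ρU_spec (g : ↥(Cfsg.SU 4 F4 2)) (i : Fin 40) :
    ∃ c : F4, c ≠ 0 ∧ matAct matU g (vU i) = c • vU (ρU g i) :=
  Classical.choose_spec exists_repU g i

/-- The matrix of the first generator. -/
def mA : Matrix (Fin 4) (Fin 4) F4 :=
  !![f4 2, f4 2, f4 1, f4 0; f4 3, f4 0, f4 2, f4 3; f4 0, f4 2, f4 1, f4 2; f4 2, f4 2, f4 0, f4 2]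

/-- The matrix of the second generator. -/
def mB : Matrix (Fin 4) (Fin 4) F4 :=
  !![f4 2, f4 2, f4 0, f4 2; f4 2, f4 2, f4 1, f4 0; f4 0, f4 3, f4 2, f4 3; f4 2, f4 0, f4 1, f4 2]

theorem mA_det : mA.det = 1 := by decide +kernel
theorem mB_det : mB.det = 1 := by decide +kernel
theorem mA_U' : ∀ i j : Fin 4, ∑ k, mA k i * (mA k j) ^ 2 = if i = j then (1 : F4) else 0 := by decide +kernel
theorem mB_U' : ∀ i j : Fin 4, ∑ k, mB k i * (mB k j) ^ 2 = if i = j then (1 : F4) else 0 := by decide +kernel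
theorem mA_U (i j : Fin 4) : ∑ k, mA k i * (mA k j) ^ 2 = (1 : Matrix (Fin 4) (Fin 4) F4) i j := by
  rw [Matrix.one_apply]
  exact mA_U' i j
theorem mB_U (i j : Fin 4) : ∑ k, mB k i * (mB k j) ^ 2 = (1 : Matrix (Fin 4) (Fin 4) F4) i j := by
  rw [Matrix.one_apply]
  exact mB_U' i j

/-- The first generator. -/
noncomputable def uA : ↥(Cfsg.SU 4 F4 2) := ⟨⟨mA, mA_det⟩, herm_of_isU (by norm_num) add_sq mA_U⟩
/-- The second generator. -/
noncomputable def uB : ↥(Cfsg.SU 4 F4 2) := ⟨⟨mB, mB_det⟩, herm_of_isU (by norm_num) add_sq mB_U⟩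

theorem mA_act : ∀ i : Fin 40, ∃ c : F4, c ≠ 0 ∧ mA *ᵥ vU i = c • vU (fin40 (Ta i)) := by decide +kernel
theorem mB_act : ∀ i : Fin 40, ∃ c : F4, c ≠ 0 ∧ mB *ᵥ vU i = c • vU (fin40 (Tb i)) := by decide +kernel

theorem ρU_uA (i : Fin 40) : ρU uA i = fin40 (Ta i) := by
  obtain ⟨c, hc, h⟩ := ρU_spec uA i
  obtain ⟨d, _, h2⟩ := mA_act i
  have h3 : c • vU (ρU uA i) = d • vU (fin40 (Ta i)) := h.symm.trans h2
  apply vU_inj _ _ (c⁻¹ * d)
  rw [mul_smul, ← h3, inv_smul_smul₀ hc]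

theorem ρU_uB (i : Fin 40) : ρU uB i = fin40 (Tb i) := by
  obtain ⟨c, hc, h⟩ := ρU_spec uB i
  obtain ⟨d, _, h2⟩ := mB_act i
  have h3 : c • vU (ρU uB i) = d • vU (fin40 (Tb i)) := h.symm.trans h2
  apply vU_inj _ _ (c⁻¹ * d)
  rw [mul_smul, ← h3, inv_smul_smul₀ hc]

theorem exists_repP : ∃ ρ' : Cfsg.PSU 4 F4 2 →* Equiv.Perm (Fin 40), ∀ g, ρ' (QuotientGroup.mk g) = ρU g :=
  exists_lift ρU_spec vU_inj (Subgroup.center _) (by
    intro g hg i
    obtain ⟨c, hc⟩ := Cfsg.Agent.Lib.Classical.center_scalar (F := F4) (q := 2) (n := 4) (by rw [card_F4]; norm_num) g hg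
    rcases hc with hc | hc
    · refine ⟨c, ?_⟩
      rw [matAct_apply]
      show (((g : Matrix.SpecialLinearGroup (Fin 4) F4) : Matrix (Fin 4) (Fin 4) F4)) *ᵥ _ = _
      rw [hc, Matrix.smul_mulVec, Matrix.one_mulVec]
    · omega)

/-- The representation of `PSU₄(2)` on the 40 points. -/
noncomputable def ρP : Cfsg.PSU 4 F4 2 →* Equiv.Perm (Fin 40) := Classical.choose exists_repP

theorem ρP_mk (g : ↥(Cfsg.SU 4 F4 2)) : ρP (QuotientGroup.mk g) = ρU g := Classical.choose_spec exists_repP g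

theorem card_PSU : Nat.card (Cfsg.PSU 4 F4 2) = 25920 := by
  have h := Cfsg.Agent.S0280.result (F := F4) (q := 2) (by rw [card_F4]; norm_num) 4 (by norm_num)
  simp only [Finset.prod_range_succ, Finset.prod_range_zero] at h
  norm_num at h
  omega

/-! ### The side of `PSp₄(3)` -/

/-- A coordinate as a number. -/
def idxS : Fin 2 ⊕ Fin 2 → ℕ := Sum.elim (fun i => i.val) (fun j => 2 + j.val)

/-- The 40 points. -/
def vS (i : Fin 40) : Fin 2 ⊕ Fin 2 → ZMod 3 :=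
  fun k => ((pget 7 127 vsT i / 3 ^ (idxS k) % 3 : ℕ) : ZMod 3)

theorem vS_inj : ∀ (i j : Fin 40) (c : ZMod 3), vS i = c • vS j → i = j := by decide +kernel

/-- A vector from its coordinates. -/
def mkV (a b c d : ZMod 3) : Fin 2 ⊕ Fin 2 → ZMod 3 := Sum.elim ![a, b] ![c, d]

/-- The code of a vector. -/
def scode (a b c d : ZMod 3) : ℕ := a.val + 3 * b.val + 9 * c.val + 27 * d.val

theorem vS_cover' : ∀ a b c d : ZMod 3, mkV a b c d ≠ 0 →
    ((pget 8 255 covS (scode a b c d) / 64 : ℕ) : ZMod 3) ≠ 0 ∧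
    mkV a b c d = ((pget 8 255 covS (scode a b c d) / 64 : ℕ) : ZMod 3) • vS (fin40 (pget 8 255 covS (scode a b c d) % 64)) := by
  decide +kernel

theorem vS_cover (v : Fin 2 ⊕ Fin 2 → ZMod 3) (h : v ≠ 0) :
    ∃ (c : ZMod 3) (j : Fin 40), c ≠ 0 ∧ v = c • vS j := by
  have hv : v = mkV (v (Sum.inl 0)) (v (Sum.inl 1)) (v (Sum.inr 0)) (v (Sum.inr 1)) := by
    funext i
    rcases i with i | i <;> fin_cases i <;> rfl
  rw [hv] at h ⊢
  exact ⟨_, _, (vS_cover' _ _ _ _ h).1, (vS_cover' _ _ _ _ h).2⟩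

theorem vS_ne : ∀ j : Fin 40, vS j ≠ 0 := by decide +kernel

/-- The matrices of elements of `Sp₄(3)`. -/
noncomputable def matS : ↥(Matrix.symplecticGroup (Fin 2) (ZMod 3)) →* Matrix (Fin 2 ⊕ Fin 2) (Fin 2 ⊕ Fin 2) (ZMod 3) :=
  (Matrix.symplecticGroup (Fin 2) (ZMod 3)).subtype

theorem exists_repS : ∃ ρ : ↥(Matrix.symplecticGroup (Fin 2) (ZMod 3)) →* Equiv.Perm (Fin 40),
    ∀ g i, ∃ c : ZMod 3, c ≠ 0 ∧ matAct matS g (vS i) = c • vS (ρ g i) :=
  exists_rep_of_cover (matAct matS) (matAct_smul matS) (fun v => v ≠ 0)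
    (fun g v hv h0 => hv (by
      have h1 : matAct matS g⁻¹ (matAct matS g v) = v := by
        rw [← Equiv.Perm.mul_apply, ← map_mul, inv_mul_cancel, map_one, Equiv.Perm.one_apply]
      rw [← h1, h0, matAct_apply, Matrix.mulVec_zero])) vS vS_ne vS_cover vS_inj

/-- The representation of `Sp₄(3)` on the 40 points. -/
noncomputable def ρS : ↥(Matrix.symplecticGroup (Fin 2) (ZMod 3)) →* Equiv.Perm (Fin 40) := Classical.choose exists_repS

theorem ρS_spec (g : ↥(Matrix.symplecticGroup (Fin 2) (ZMod 3))) (i : Fin 40) :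
    ∃ c : ZMod 3, c ≠ 0 ∧ matAct matS g (vS i) = c • vS (ρS g i) :=
  Classical.choose_spec exists_repS g i

/-- A matrix from the list of its rows. -/
def ofL (L : List (List ℕ)) : Matrix (Fin 2 ⊕ Fin 2) (Fin 2 ⊕ Fin 2) (ZMod 3) :=
  fun i j => (((L.getD (idxS i) []).getD (idxS j) 0 : ℕ) : ZMod 3)

/-- The matrix of the first generator. -/
def nA : Matrix (Fin 2 ⊕ Fin 2) (Fin 2 ⊕ Fin 2) (ZMod 3) := ofL [[1, 2, 0, 2], [1, 0, 1, 1], [0, 0, 0, 2], [2, 0, 0, 0]]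

/-- The matrix of the second generator. -/
def nB : Matrix (Fin 2 ⊕ Fin 2) (Fin 2 ⊕ Fin 2) (ZMod 3) := ofL [[1, 1, 2, 0], [1, 2, 0, 2], [0, 0, 2, 2], [0, 0, 2, 1]]

theorem nA_sp : nA ∈ Matrix.symplecticGroup (Fin 2) (ZMod 3) := by
  rw [SymplecticGroup.mem_iff]
  decide +kernel

theorem nB_sp : nB ∈ Matrix.symplecticGroup (Fin 2) (ZMod 3) := by
  rw [SymplecticGroup.mem_iff]
  decide +kernel

theorem nA_act : ∀ i : Fin 40, ∃ c : ZMod 3, c ≠ 0 ∧ nA *ᵥ vS i = c • vS (fin40 (Ta i)) := by decide +kernel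
theorem nB_act : ∀ i : Fin 40, ∃ c : ZMod 3, c ≠ 0 ∧ nB *ᵥ vS i = c • vS (fin40 (Tb i)) := by decide +kernel

theorem ρS_nA (i : Fin 40) : ρS ⟨nA, nA_sp⟩ i = fin40 (Ta i) := by
  obtain ⟨c, hc, h⟩ := ρS_spec ⟨nA, nA_sp⟩ i
  obtain ⟨d, _, h2⟩ := nA_act i
  have h3 : c • vS (ρS ⟨nA, nA_sp⟩ i) = d • vS (fin40 (Ta i)) := h.symm.trans h2
  apply vS_inj _ _ (c⁻¹ * d)
  rw [mul_smul, ← h3, inv_smul_smul₀ hc]

theorem ρS_nB (i : Fin 40) : ρS ⟨nB, nB_sp⟩ i = fin40 (Tb i) := by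
  obtain ⟨c, hc, h⟩ := ρS_spec ⟨nB, nB_sp⟩ i
  obtain ⟨d, _, h2⟩ := nB_act i
  have h3 : c • vS (ρS ⟨nB, nB_sp⟩ i) = d • vS (fin40 (Tb i)) := h.symm.trans h2
  apply vS_inj _ _ (c⁻¹ * d)
  rw [mul_smul, ← h3, inv_smul_smul₀ hc]

theorem exists_repQ : ∃ ρ' : Cfsg.PSp 2 (ZMod 3) →* Equiv.Perm (Fin 40), ∀ g, ρ' (QuotientGroup.mk g) = ρS g :=
  exists_lift ρS_spec vS_inj (Subgroup.center _) (by
    intro g hg i
    obtain ⟨c, _, hc⟩ := Cfsg.Agent.Lib.Classical.sp_center_scalar (by norm_num) g hg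
    refine ⟨c, ?_⟩
    rw [matAct_apply]
    show (g : Matrix (Fin 2 ⊕ Fin 2) (Fin 2 ⊕ Fin 2) (ZMod 3)) *ᵥ _ = _
    rw [hc, Matrix.smul_mulVec, Matrix.one_mulVec])

/-- The representation of `PSp₄(3)` on the 40 points. -/
noncomputable def ρQ : Cfsg.PSp 2 (ZMod 3) →* Equiv.Perm (Fin 40) := Classical.choose exists_repQ

theorem ρQ_mk (g : ↥(Matrix.symplecticGroup (Fin 2) (ZMod 3))) : ρQ (QuotientGroup.mk g) = ρS g :=
  Classical.choose_spec exists_repQ g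

theorem card_PSp : Nat.card (Cfsg.PSp 2 (ZMod 3)) = 25920 := by
  have h1 := Cfsg.Agent.S0245.result (F := ZMod 3) (q := 3) (ZMod.card 3) 2
  have h2 := Cfsg.Agent.S0246.result (F := ZMod 3) (q := 3) (ZMod.card 3) 2 (by norm_num)
  have h3 := Subgroup.card_eq_card_quotient_mul_card_subgroup (Subgroup.center (Matrix.symplecticGroup (Fin 2) (ZMod 3)))
  simp only [Finset.prod_range_succ, Finset.prod_range_zero] at h1
  norm_num at h1 h2
  rw [h1, h2] at h3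
  show Nat.card (Matrix.symplecticGroup (Fin 2) (ZMod 3) ⧸ Subgroup.center (Matrix.symplecticGroup (Fin 2) (ZMod 3))) = _
  omega

/-! ### The common subgroup -/

theorem ρP_A : ρP (QuotientGroup.mk uA) = ρQ (QuotientGroup.mk ⟨nA, nA_sp⟩) := by
  rw [ρP_mk, ρQ_mk]
  ext1 i
  rw [ρU_uA, ρS_nA]

theorem ρP_B : ρP (QuotientGroup.mk uB) = ρQ (QuotientGroup.mk ⟨nB, nB_sp⟩) := by
  rw [ρP_mk, ρQ_mk]
  ext1 i
  rw [ρU_uB, ρS_nB]

/-- Letters as permutations. -/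
noncomputable def gl (l : ℕ) : Equiv.Perm (Fin 40) := if l = 0 then ρU uA else ρU uB

/-- Letters as tables. -/
def Tl (l x : ℕ) : ℕ := pget 6 63 (bcond (Nat.beq l 0) taT tbT) x

/-- The words, listed with strictly increasing keys. -/
noncomputable def wordOf (i : ℕ) : List ℕ := decodeW 3 40 (pget 47 140737488355327 wT i)

theorem Ta_lt : ∀ x : Fin 40, Ta x < 40 := by decide +kernel
theorem Tb_lt : ∀ x : Fin 40, Tb x < 40 := by decide +kernel

theorem words_mono : allBelow (fun i => Nat.blt (numKey Tl 40 [0, 3, 1, 13] (wordOf i))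
    (numKey Tl 40 [0, 3, 1, 13] (wordOf (i + 1)))) 25919 = true := by decide +kernel

theorem card_A : 25920 ≤ Nat.card ↥(Subgroup.closure ({ρU uA, ρU uB} : Set (Equiv.Perm (Fin 40)))) := by
  refine card_ge_of_words (k := 2) gl Tl ?_ _ ?_ wordOf (fun i _ a ha => decodeW_lt ha) [0, 3, 1, 13] (by simp) ?_
  · intro a ha x
    have ha' : a = 0 ∨ a = 1 := by omega
    rcases ha' with rfl | rfl
    · show ((ρU uA x : Fin 40) : ℕ) = Ta x
      rw [ρU_uA]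
      exact Nat.mod_eq_of_lt (Ta_lt x)
    · show ((ρU uB x : Fin 40) : ℕ) = Tb x
      rw [ρU_uB]
      exact Nat.mod_eq_of_lt (Tb_lt x)
  · intro a ha
    have ha' : a = 0 ∨ a = 1 := by omega
    rcases ha' with rfl | rfl
    · exact Subgroup.subset_closure (Set.mem_insert _ _)
    · exact Subgroup.subset_closure (Set.mem_insert_of_mem _ rfl)
  · intro i hi
    have h := (allBelow_iff _ _).1 words_mono i (by omega)
    exact Eq.mp Nat.blt_eq h

/-- `PSU₄(2) ≅ PSp₄(3)` over the explicit fields. -/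
theorem main : Nonempty (Cfsg.PSU 4 F4 2 ≃* Cfsg.PSp 2 (ZMod 3)) := by
  refine iso_of_common ρP ρQ (Subgroup.closure ({ρU uA, ρU uB} : Set (Equiv.Perm (Fin 40)))) ?_ ?_ ?_ ?_
  · rw [Subgroup.closure_le]
    rintro x (rfl | rfl)
    · exact ⟨QuotientGroup.mk uA, ρP_mk _⟩
    · exact ⟨QuotientGroup.mk uB, ρP_mk _⟩
  · rw [Subgroup.closure_le]
    rintro x (rfl | rfl)
    · exact ⟨QuotientGroup.mk ⟨nA, nA_sp⟩, by rw [← ρP_A, ρP_mk]⟩
    · exact ⟨QuotientGroup.mk ⟨nB, nB_sp⟩, by rw [← ρP_B, ρP_mk]⟩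
  · rw [card_PSU]
    exact card_A
  · rw [card_PSp]
    exact card_A

end Cfsg.Agent.Lib.ChevSmall.U42
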